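import Cfsg.Agent.H58.McLOdd
import Cfsg.Agent.H6.QO.Frame
import Cfsg.Agent.H235.Ore.McL
import Cfsg.Agent.S2047

/-!
# Ore's theorem for the perfect central extensions of the McLaughlin group (helper235)

`ker_cyc5`, `pair` : the kernel is generated by the commutator of the lifts of a commuting pair (this is the proof of
`bd_cyc5`, `bd_three` of helper58 with a stronger conclusion); `rowA_McL`.
-/

set_option autoImplicit false
set_option maxRecDepth 100000
set_option linter.style.haveILetI false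
set_option linter.unusedVariables false

namespace Cfsg.Agent.H235.QS.McLCov

section Cyc

open Subgroup
open scoped commutatorElement
open Cfsg.Agent.H51.Mult
open Cfsg.Agent.CpQuot
open Cfsg.Agent.H48.Crit
open Cfsg.Agent.H52.OddLift
open Cfsg.Agent.H58 Cfsg.Agent.H58.Cyc5

universe u v

/-- **The kernel is generated by the commutator of the lifts of `a` and `t ^ 2 a t ^ (- 2)`** (proof: `bd_cyc5` of helper58) -/
theorem ker_cyc5 {X : Type v} [Group X] {p : ℕ} (hp : p.Prime) (hp2 : p ≠ 2) (hp5 : p ≠ 5) {a t j u z : X}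
    (hj : j * j = 1) (ha : a ^ p = 1) (hja : j * a * j⁻¹ = a⁻¹) (ht : t ^ 5 = 1) (htj : t * j = j * t)
    (huj : u * j = j * u) (hz : ⁅a, cj t a 1⁆ = z) (hz1 : z ≠ 1) {n : ℤ} (hy : ⁅a, cj t a 2⁆ = z ^ n) (hn1 : z ^ n = 1)
    (hza : z * a = a * z) (hzj : z * j = j * z) (hzt : z * t = t * z)
    (hu : ∀ i : ℤ, u * cj t a i * u⁻¹ ∈ closure (Set.range (cj t a)))
    (hidx : ¬ p ∣ (closure (insert u (Set.range (cj t a)))).index)
    (L : Type) [Group L] [Finite L] (π : L →* X) (h : PCE π) (hP : IsPGroup p π.ker) :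
    ∃ A B : L, π A = a ∧ π B = cj t a 2 ∧ ∀ ζ : L, π ζ = 1 → ζ ∈ zpowers ⁅A, B⁆ := by
  have hO := oext_of_pce h hp hp2 hP
  obtain ⟨N, hN⟩ := hO.odd
  have hcop2 : Nat.Coprime p 2 := (Nat.coprime_primes hp Nat.prime_two).2 hp2
  have hcop5 : Nat.Coprime p 5 := (Nat.coprime_primes hp (by norm_num)).2 hp5
  -- lifts
  obtain ⟨J, hJ, hJJ⟩ := hO.exists_inv hj
  have hJi : J⁻¹ = J := inv_eq_of_mul_eq_one_left hJJ
  obtain ⟨T, hT⟩ := h.surj t
  obtain ⟨U, hU⟩ := h.surj u
  have mk : ∀ {x : L}, π x = 1 → x ∈ center L := fun hx => h.cen (MonoidHom.mem_ker.2 hx)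
  -- the inverted lift of `a`
  obtain ⟨A, hA, hJA⟩ : ∃ A : L, π A = a ∧ J * A * J⁻¹ = A⁻¹ := by
    obtain ⟨A0, hA0⟩ := h.surj a
    have hc1 : π (J * A0 * J⁻¹ * A0) = 1 := by
      simp only [map_mul, map_inv, hJ, hA0]
      rw [hja, inv_mul_cancel]
    set c := J * A0 * J⁻¹ * A0 with hc
    have hcc := commute_center (mk hc1)
    have hcN := hN c hc1
    refine ⟨c ^ N * A0, ?_, ?_⟩
    · rw [map_mul, map_pow, hc1, one_pow, one_mul, hA0]
    · have e1 : J * A0 * J⁻¹ = c * A0⁻¹ := by rw [hc]; group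
      have e2 : c ^ N * J = J * c ^ N := (Commute.pow_left (show Commute c J from hcc J) N)
      have e3 : c ^ N * A0⁻¹ = A0⁻¹ * c ^ N := (Commute.pow_left (show Commute c A0⁻¹ from hcc A0⁻¹) N)
      have e4 : J * (c ^ N * A0) * J⁻¹ = c ^ N * (J * A0 * J⁻¹) := by
        calc J * (c ^ N * A0) * J⁻¹ = (J * c ^ N) * A0 * J⁻¹ := by group
          _ = (c ^ N * J) * A0 * J⁻¹ := by rw [e2]
          _ = _ := by group
      rw [e4, e1, mul_inv_rev, ← mul_assoc, ← pow_succ]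
      have e5 : c ^ (N + 1) = (c ^ N)⁻¹ := by
        rw [eq_inv_iff_mul_eq_one, ← pow_add]
        rw [← hcN]; congr 1; ring
      rw [e5]
      have e6 : Commute (c ^ N)⁻¹ A0⁻¹ := Commute.inv_left e3
      exact e6.eq
  -- commuting lifts
  have hTJ : T * J = J * T := by
    have h1 : ⁅T, J⁆ = 1 := Pairs.comm_eq_one (n := 2) h.cen hP (by rw [hT, hJ, htj]) hcop2
      (by rw [hJ, pow_two, hj])
    exact commutatorElement_eq_one_iff_mul_comm.1 h1
  have hUJ : U * J = J * U := by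
    have h1 : ⁅U, J⁆ = 1 := Pairs.comm_eq_one (n := 2) h.cen hP (by rw [hU, hJ, huj]) hcop2
      (by rw [hJ, pow_two, hj])
    exact commutatorElement_eq_one_iff_mul_comm.1 h1
  -- the lift of `⟨z⟩`
  have zJ : ∀ x : L, π x ∈ zpowers z → x * J = J * x := by
    intro x hx
    obtain ⟨k, hk⟩ := mem_zpowers_iff.1 hx
    have h1 : ⁅x, J⁆ = 1 := Pairs.comm_eq_one (n := 2) h.cen hP
      (by rw [← hk, hJ]; exact (Commute.zpow_left (show Commute z j from hzj) k)) hcop2 (by rw [hJ, pow_two, hj])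
    exact commutatorElement_eq_one_iff_mul_comm.1 h1
  have zT : ∀ x : L, π x ∈ zpowers z → x * T = T * x := by
    intro x hx
    obtain ⟨k, hk⟩ := mem_zpowers_iff.1 hx
    have h1 : ⁅x, T⁆ = 1 := Pairs.comm_eq_one (n := 5) h.cen hP
      (by rw [← hk, hT]; exact (Commute.zpow_left (show Commute z t from hzt) k)) hcop5 (by rw [hT, ht])
    exact commutatorElement_eq_one_iff_mul_comm.1 h1
  have zA : ∀ x : L, π x ∈ zpowers z → x * A = A * x := by
    intro x hx
    obtain ⟨k, hk⟩ := mem_zpowers_iff.1 hx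
    have h0 : π x * π A = π A * π x := by
      rw [← hk, hA]; exact (Commute.zpow_left (show Commute z a from hza) k)
    have h1 : ⁅x, A⁆ ∈ center L := Pairs.comm_mem_center h.cen h0
    have h2 : J * ⁅x, A⁆ * J⁻¹ = ⁅x, A⁆⁻¹ := by
      rw [conj_comm, hJA, ← zJ x hx, mul_inv_cancel_right, comm_inv_right h1]
    have h3 : J * ⁅x, A⁆ * J⁻¹ = ⁅x, A⁆ := by rw [← commute_center h1 J, mul_inv_cancel_right]
    rw [h3] at h2
    have h4 : ⁅x, A⁆ * ⁅x, A⁆ = 1 := by
      nth_rewrite 2 [h2]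
      rw [mul_inv_cancel]
    have h5 : π ⁅x, A⁆ = 1 := by
      rw [map_commutatorElement, commutatorElement_eq_one_iff_mul_comm, h0]
    exact commutatorElement_eq_one_iff_mul_comm.1 (hO.one_of_sq h5 h4)
  have zC : ∀ x : L, π x ∈ zpowers z → ∀ i, x * cj T A i = cj T A i * x := by
    intro x hx i
    have h1 : Commute x (T ^ i) := Commute.zpow_right (show Commute x T from zT x hx) i
    exact (h1.mul_right (show Commute x A from zA x hx)).mul_right h1.inv_right
  -- the fifth power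
  have hT5 : T ^ (5 : ℤ) ∈ center L := mk (by
    rw [map_zpow, hT]
    exact_mod_cast ht)
  have cj5 : ∀ i k : ℤ, cj T A (i + 5 * k) = cj T A i := by
    intro i k
    have h1 : T ^ (5 * k) ∈ center L := by rw [zpow_mul]; exact zpow_mem hT5 k
    have h2 := commute_center h1
    rw [add_comm, ← cj_conj, h2, mul_inv_cancel_right]
  -- `α`, `β`
  set α := ⁅A, cj T A 1⁆ with hα
  set β := ⁅A, cj T A 2⁆ with hβ
  have pα : π α = z := by rw [hα, map_commutatorElement, map_cj, hA, hT, hz]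
  have pβ : π β = z ^ n := by rw [hβ, map_commutatorElement, map_cj, hA, hT, hy]
  have zα : π α ∈ zpowers z := by rw [pα]; exact mem_zpowers z
  have zβ : π β ∈ zpowers z := by rw [pβ]; exact zpow_mem (mem_zpowers z) n
  set W : Subgroup L := closure {α, β} with hW
  have zW : ∀ x ∈ W, π x ∈ zpowers z := by
    have : W ≤ (zpowers z).comap π := by
      rw [hW, closure_le]
      rintro x (rfl | rfl)
      · exact zα
      · exact zβ
    exact this
  have αW : α ∈ W := subset_closure (by simp)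
  have βW : β ∈ W := subset_closure (by simp)
  have hinvC : ∀ i, J * cj T A i * J⁻¹ = (cj T A i)⁻¹ := by
    intro i
    have h1 : Commute J (T ^ i) := Commute.zpow_right (show Commute J T from hTJ.symm) i
    have h2 : J * T ^ i = T ^ i * J := h1
    calc J * cj T A i * J⁻¹ = (J * T ^ i) * A * (J * T ^ i)⁻¹ := by rw [cj]; group
      _ = T ^ i * (J * A * J⁻¹) * (T ^ i)⁻¹ := by rw [h2]; group
      _ = (cj T A i)⁻¹ := by rw [hJA, cj]; group
  have Tfix : ∀ x : L, π x ∈ zpowers z → ∀ k : ℤ, T ^ k * x * (T ^ k)⁻¹ = x := by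
    intro x hx k
    have h1 : Commute x (T ^ k) := Commute.zpow_right (show Commute x T from zT x hx) k
    rw [← h1.eq, mul_inv_cancel_right]
  have comm0 : ∀ m : ℤ, ⁅A, cj T A m⁆ ∈ W := by
    intro m
    have h1 : cj T A m = cj T A (m % 5) := by
      conv_lhs => rw [← Int.emod_add_mul_ediv m 5]
      exact cj5 _ _
    rw [h1]
    have h2 : m % 5 = 0 ∨ m % 5 = 1 ∨ m % 5 = 2 ∨ m % 5 = 3 ∨ m % 5 = 4 := by omega
    rcases h2 with h2 | h2 | h2 | h2 | h2 <;> rw [h2]
    · rw [cj_zero, commutatorElement_self]; exact one_mem _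
    · exact αW
    · exact βW
    · have e1 : T ^ (3 : ℤ) * ⁅cj T A 2, A⁆ * (T ^ (3 : ℤ))⁻¹ = ⁅A, cj T A 3⁆ := by
        rw [conj_comm, cj_conj, show (3 : ℤ) + 2 = 0 + 5 * 1 by norm_num, cj5, cj_zero]
        rfl
      have e2 : ⁅cj T A 2, A⁆ = β⁻¹ := by rw [hβ, commutatorElement_inv]
      rw [← e1, e2, Tfix _ (by rw [map_inv]; exact inv_mem zβ)]
      exact inv_mem βW
    · have e1 : T ^ (4 : ℤ) * ⁅cj T A 1, A⁆ * (T ^ (4 : ℤ))⁻¹ = ⁅A, cj T A 4⁆ := by
        rw [conj_comm, cj_conj, show (4 : ℤ) + 1 = 0 + 5 * 1 by norm_num, cj5, cj_zero]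
        rfl
      have e2 : ⁅cj T A 1, A⁆ = α⁻¹ := by rw [hα, commutatorElement_inv]
      rw [← e1, e2, Tfix _ (by rw [map_inv]; exact inv_mem zα)]
      exact inv_mem αW
  have comm1 : ∀ i k : ℤ, ⁅cj T A i, cj T A k⁆ ∈ W := by
    intro i k
    have e1 : T ^ i * ⁅A, cj T A (k - i)⁆ * (T ^ i)⁻¹ = ⁅cj T A i, cj T A k⁆ := by
      rw [conj_comm, cj_conj, add_sub_cancel]
      rfl
    rw [← e1, Tfix _ (zW _ (comm0 _))]
    exact comm0 _
  -- `D`
  set D : Subgroup L := closure (Set.range (cj T A)) with hD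
  have zD : ∀ x : L, π x ∈ zpowers z → ∀ d ∈ D, x * d = d * x := by
    intro x hx d hd
    have : D ≤ centralizer {x} := by
      rw [hD, closure_le]
      rintro _ ⟨i, rfl⟩
      rw [SetLike.mem_coe, mem_centralizer_singleton_iff]
      exact (zC x hx i).symm
    exact (mem_centralizer_singleton_iff.1 (this hd)).symm
  have hDD : ∀ x ∈ D, ∀ y ∈ D, ⁅x, y⁆ ∈ W := by
    have h1 : ⁅D, D⁆ ≤ W := by
      rw [hD]
      apply commutator_le_of_gen
      · rintro _ ⟨i, rfl⟩ c hc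
        rw [← zC c (zW c hc), mul_inv_cancel_right]
        exact hc
      · rintro _ ⟨i, rfl⟩ _ ⟨k, rfl⟩
        exact comm1 i k
    intro x hx y hy
    exact h1 (commutator_mem_commutator hx hy)
  have hWD : W ≤ D := by
    rw [hW, closure_le]
    have m0 : A ∈ D := by rw [← cj_zero T A]; exact subset_closure ⟨0, rfl⟩
    have hcm : ∀ x ∈ D, ∀ y ∈ D, ⁅x, y⁆ ∈ D := by
      intro x hx y hy
      rw [commutatorElement_def]
      exact mul_mem (mul_mem (mul_mem hx hy) (inv_mem hx)) (inv_mem hy)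
    rintro x (rfl | rfl)
    · exact hcm _ m0 _ (subset_closure ⟨1, rfl⟩)
    · exact hcm _ m0 _ (subset_closure ⟨2, rfl⟩)
  -- the action of `J` on `D`
  have hJD : ∀ x ∈ D, ∃ c ∈ W, J * x * J⁻¹ = x⁻¹ * c := by
    intro x hx
    rw [hD] at hx
    induction hx using closure_induction with
    | mem x hx =>
      obtain ⟨i, rfl⟩ := hx
      exact ⟨1, one_mem _, by rw [hinvC, mul_one]⟩
    | one => exact ⟨1, one_mem _, by group⟩
    | mul x y hx hy h1 h2 =>
      obtain ⟨c, hc, h1⟩ := h1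
      obtain ⟨d, hd, h2⟩ := h2
      refine ⟨⁅x, y⁆ * (c * d), mul_mem (hDD x hx y hy) (mul_mem hc hd), ?_⟩
      have e0 : ⁅x, y⁆ * (y * x) = x * y := by rw [commutatorElement_def]; group
      have e1 : c * y⁻¹ = y⁻¹ * c := zD c (zW c hc) _ (inv_mem hy)
      calc J * (x * y) * J⁻¹ = (J * x * J⁻¹) * (J * y * J⁻¹) := by group
        _ = x⁻¹ * (c * y⁻¹) * d := by rw [h1, h2]; group
        _ = (y * x)⁻¹ * (c * d) := by rw [e1]; group
        _ = (x * y)⁻¹ * (⁅x, y⁆ * (c * d)) := by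
          have e2 : (x * y)⁻¹ * ⁅x, y⁆ = (y * x)⁻¹ := by
            rw [← e0, mul_inv_rev, inv_mul_cancel_right]
          rw [← e2, mul_assoc]
    | inv x hx h1 =>
      obtain ⟨c, hc, h1⟩ := h1
      refine ⟨c⁻¹, inv_mem hc, ?_⟩
      have e1 : c⁻¹ * x = x * c⁻¹ := zD c⁻¹ (zW _ (inv_mem hc)) _ hx
      calc J * x⁻¹ * J⁻¹ = (J * x * J⁻¹)⁻¹ := by group
        _ = c⁻¹ * x := by rw [h1]; group
        _ = x⁻¹⁻¹ * c⁻¹ := by rw [e1, inv_inv]
  -- odd order of elements over `⟨z⟩`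
  have hap : A ^ p = 1 := by
    have h1 : π (A ^ p) = 1 := by rw [map_pow, hA, ha]
    have h2 : A ^ p ∈ center L := mk h1
    have h3 : J * A ^ p * J⁻¹ = (A ^ p)⁻¹ := by rw [← conj_pow, hJA, inv_pow]
    rw [← commute_center h2, mul_inv_cancel_right] at h3
    apply hO.one_of_sq h1
    nth_rewrite 2 [h3]
    rw [mul_inv_cancel]
  have hαp : α ^ p = 1 := by
    have e0 : A * cj T A 1 = α * (cj T A 1 * A) := by rw [hα, commutatorElement_def]; group
    have e1 := Crit.zpow_swap e0 (zA α zα) (zC α zα 1) p 1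
    rw [zpow_one, mul_one, zpow_natCast, zpow_natCast, hap, one_mul, mul_one] at e1
    exact (mul_eq_right.1 e1.symm)
  have hβp : β ^ p = 1 := by
    have e0 : A * cj T A 2 = β * (cj T A 2 * A) := by rw [hβ, commutatorElement_def]; group
    have e1 := Crit.zpow_swap e0 (zA β zβ) (zC β zβ 2) p 1
    rw [zpow_one, mul_one, zpow_natCast, zpow_natCast, hap, one_mul, mul_one] at e1
    exact (mul_eq_right.1 e1.symm)
  have hzp : z ^ p = 1 := by rw [← pα, ← map_pow, hαp, map_one]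
  have hodd : ∀ x : L, π x ∈ zpowers z → x * x ∈ W → x ∈ W := by
    intro x hx hxx
    obtain ⟨k, hk⟩ := mem_zpowers_iff.1 hx
    have h1 : π (x ^ p) = 1 := by
      rw [map_pow, ← hk, ← zpow_natCast, ← zpow_mul, mul_comm, zpow_mul, zpow_natCast, hzp, one_zpow]
    have h2 := hN _ h1
    rw [← pow_mul] at h2
    obtain ⟨q, hq⟩ := hp.odd_of_ne_two hp2
    have h3 : p * (2 * N + 1) = 2 * (p * N + q) + 1 := by rw [hq]; ring
    rw [h3] at h2
    exact mem_of_sq h2 hxx
  have hDz : ∀ x ∈ D, π x ∈ zpowers z → x ∈ W := by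
    intro x hx hxz
    apply hodd x hxz
    obtain ⟨c, hc, h1⟩ := hJD x hx
    rw [← zJ x hxz, mul_inv_cancel_right] at h1
    have h2 : x * x = c := by
      nth_rewrite 2 [h1]
      rw [mul_inv_cancel_left]
    rw [h2]; exact hc
  -- inverted elements over `π D` lie in `D`
  have hinvD : ∀ x : L, J * x * J⁻¹ = x⁻¹ → π x ∈ closure (Set.range (cj t a)) → x ∈ D := by
    intro x hxJ hx
    have h1 : closure (Set.range (cj t a)) = D.map π := by
      rw [hD, MonoidHom.map_closure, ← Set.range_comp]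
      congr 2
      funext i
      rw [Function.comp_apply, map_cj, hT, hA]
    rw [h1] at hx
    obtain ⟨d, hd, hdx⟩ := hx
    have h2 : π (d⁻¹ * x) = 1 := by rw [map_mul, map_inv, hdx, inv_mul_cancel]
    set w := d⁻¹ * x with hw
    have hwx : x = d * w := by rw [hw, mul_inv_cancel_left]
    have hwc := commute_center (mk h2)
    obtain ⟨c, hc, h3⟩ := hJD d hd
    have h4 : w * w ∈ W := by
      have e1 : J * x * J⁻¹ = d⁻¹ * c * w := by
        calc J * x * J⁻¹ = J * d * (w * J⁻¹) := by rw [hwx]; group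
          _ = J * d * (J⁻¹ * w) := by rw [hwc]
          _ = (J * d * J⁻¹) * w := by group
          _ = _ := by rw [h3]
      rw [hxJ, hwx, mul_inv_rev] at e1
      have e2 : w⁻¹ * d⁻¹ = d⁻¹ * w⁻¹ := by
        have := (show Commute w d from hwc d)
        exact (this.inv_inv).eq
      rw [e2, mul_assoc] at e1
      have e3 : w⁻¹ = c * w := mul_left_cancel e1
      have e4 : w * w = c⁻¹ := by
        have e5 : c⁻¹ * w⁻¹ = w := by rw [e3, inv_mul_cancel_left]
        calc w * w = w * (c⁻¹ * w⁻¹) := by rw [e5]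
          _ = (w * c⁻¹) * w⁻¹ := by group
          _ = c⁻¹ := by rw [hwc, mul_inv_cancel_right]
      rw [e4]; exact inv_mem hc
    have h5 : w ∈ W := hodd w (by rw [h2]; exact one_mem _) h4
    rw [hwx]
    exact mul_mem hd (hWD h5)
  have hUc : ∀ i, U * cj T A i * U⁻¹ ∈ D := by
    intro i
    apply hinvD
    · have h1 : J * U = U * J := hUJ.symm
      calc J * (U * cj T A i * U⁻¹) * J⁻¹ = (J * U) * cj T A i * (J * U)⁻¹ := by group
        _ = U * (J * cj T A i * J⁻¹) * U⁻¹ := by rw [h1]; group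
        _ = _ := by rw [hinvC]; group
    · rw [map_mul, map_mul, map_inv, map_cj, hU, hT, hA]
      exact hu i
  have hUD : ∀ d ∈ D, U * d * U⁻¹ ∈ D := by
    have : D ≤ D.comap (MulAut.conj U).toMonoidHom := by
      conv_lhs => rw [hD]
      rw [closure_le]
      rintro _ ⟨i, rfl⟩
      exact hUc i
    intro d hd
    exact this hd
  -- the kernel is contained in `D`, hence in `W`
  have hkD : π.ker ≤ D := by
    refine ker_le h hp hP (s := insert U (Set.range (cj T A))) ?_ ?_ ?_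
    · have e1 : π '' (insert U (Set.range (cj T A))) = insert u (Set.range (cj t a)) := by
        rw [Set.image_insert_eq, hU, ← Set.range_comp]
        congr 2
        funext i
        rw [Function.comp_apply, map_cj, hT, hA]
      rwa [e1]
    · rintro x (rfl | ⟨i, rfl⟩) c hc
      · exact hUD c hc
      · have m : cj T A i ∈ D := subset_closure ⟨i, rfl⟩
        exact mul_mem (mul_mem m hc) (inv_mem m)
    · have h1 : ∀ i, ⁅U, cj T A i⁆ ∈ D := by
        intro i
        rw [commutatorElement_def]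
        exact mul_mem (hUc i) (inv_mem (subset_closure ⟨i, rfl⟩))
      rintro x (rfl | ⟨i, rfl⟩) y (rfl | ⟨k, rfl⟩)
      · rw [commutatorElement_self]; exact one_mem _
      · exact h1 k
      · exact Pairs.swap_mem (h1 i)
      · exact hWD (comm1 i k)
  have hkW : π.ker ≤ W := fun x hx => hDz x (hkD hx) (by rw [MonoidHom.mem_ker.1 hx]; exact one_mem _)
  have hab : α * β = β * α := zD α zα β (hWD βW)
  refine ⟨A, cj T A 2, hA, by rw [map_cj, hT, hA], fun ζ hζ => ?_⟩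
  have key : ∀ x ∈ W, ∃ i k : ℤ, x = α ^ i * β ^ k := by
    intro x hx
    rw [hW] at hx
    induction hx using closure_induction with
    | mem x hx =>
      rcases hx with rfl | rfl
      · exact ⟨1, 0, by rw [zpow_one, zpow_zero, mul_one]⟩
      · exact ⟨0, 1, by rw [zpow_one, zpow_zero, one_mul]⟩
    | one => exact ⟨0, 0, by rw [zpow_zero, zpow_zero, mul_one]⟩
    | mul x y _ _ h1 h2 =>
      obtain ⟨i, k, rfl⟩ := h1
      obtain ⟨i', k', rfl⟩ := h2
      refine ⟨i + i', k + k', ?_⟩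
      have e1 : β ^ k * α ^ i' = α ^ i' * β ^ k := ((show Commute α β from hab).zpow_zpow i' k).symm
      rw [zpow_add, zpow_add]
      calc α ^ i * β ^ k * (α ^ i' * β ^ k') = α ^ i * (β ^ k * α ^ i') * β ^ k' := by group
        _ = _ := by rw [e1]; group
    | inv x _ h1 =>
      obtain ⟨i, k, rfl⟩ := h1
      refine ⟨-i, -k, ?_⟩
      have e1 := ((show Commute α β from hab).zpow_zpow i k).eq
      rw [e1, mul_inv_rev, zpow_neg, zpow_neg]
  obtain ⟨i, k, e⟩ := key ζ (hkW (MonoidHom.mem_ker.2 hζ))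
  have pβ1 : π β = 1 := by rw [pβ, hn1]
  have h2 : z ^ i = 1 := by
    rw [e, map_mul, map_zpow, map_zpow, pα, pβ1, one_zpow, mul_one] at hζ
    exact hζ
  have hzo : orderOf z = p := by
    haveI : Fact p.Prime := ⟨hp⟩
    exact orderOf_eq_prime hzp hz1
  have h3 : α ^ i = 1 := by
    have h4 := orderOf_dvd_iff_zpow_eq_one.2 h2
    rw [hzo] at h4
    obtain ⟨m, rfl⟩ := h4
    rw [zpow_mul, zpow_natCast, hαp, one_zpow]
  rw [e, h3, one_mul]
  exact zpow_mem (mem_zpowers _) _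

end Cyc

section Pair

open Cfsg.Agent.SporadicStructure.PermChain Cfsg.Agent.McLType.X275 Cfsg.Agent.McLType.Gens Cfsg.Agent.McLType.Model
open Cfsg.Agent.H51.Mult Cfsg.Agent.H58 Cfsg.Agent.H58.McLOdd Cfsg.Agent.H58.PChain Cfsg.Agent.H58.Cyc5 Subgroup
open scoped commutatorElement

/-- **The kernel is generated by the commutator of the lifts of `a0`, `a2`** (proof: `bd_three` of helper58). -/
theorem pair (L : Type) [Group L] [Finite L] (π : L →* G1) (h : PCE π) (hP : IsPGroup 3 π.ker) :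
    ∃ A B : L, π A = wd a0 ∧ π B = wd a2 ∧ ∀ ζ : L, π ζ = 1 → ζ ∈ zpowers ⁅A, B⁆ := by
  have hq1 := c31
  have hq2 := c32
  have hq3 := c33
  simp only [Bool.and_eq_true, Bool.not_eq_true'] at hq1 hq2 hq3
  obtain ⟨⟨⟨⟨⟨⟨⟨⟨⟨⟨h1, h2⟩, h3⟩, h4⟩, h5⟩, h6⟩, h7⟩, h8⟩, h9⟩, h10⟩, h11⟩ := hq1
  obtain ⟨⟨⟨⟨⟨⟨⟨⟨k1, k2⟩, k3⟩, k4⟩, k5⟩, k6⟩, k7⟩, k8⟩, k9⟩ := hq2
  obtain ⟨⟨⟨⟨⟨⟨⟨n1, n2⟩, n3⟩, n4⟩, n5⟩, n6⟩, n7⟩, n8⟩ := hq3
  have hjj : wd j3 * wd j3 = 1 := by rw [← wd_app]; exact eq_of_chk h1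
  have ha3 : wd a0 ^ 3 = 1 := by rw [← wd_pw]; exact eq_of_chk h2
  have hja : wd j3 * wd a0 * (wd j3)⁻¹ = (wd a0)⁻¹ := by rw [← wd_cj, ← wd_iv]; exact eq_of_chk h3
  have ht5 : wd t3 ^ 5 = 1 := by rw [← wd_pw]; exact eq_of_chk h4
  have htj := comm_of_chk h5
  have huj := comm_of_chk h6
  have hzz : ⁅wd a0, wd a1⁆ = wd z3 := by rw [← wd_cm]; exact eq_of_chk h7
  have hyy : ⁅wd a0, wd a2⁆ = 1 := by rw [← wd_cm]; exact eq_of_chk h8
  have hza := comm_of_chk h9
  have hzj := comm_of_chk h10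
  have hzt := comm_of_chk h11
  have hzu := comm_of_chk k1
  have hu3 : wd u3 ^ 3 = 1 := by rw [← wd_pw]; exact eq_of_chk k2
  have hz3 : wd z3 ^ 3 = 1 := by rw [← wd_pw]; exact eq_of_chk k3
  have hz1 : wd z3 ≠ 1 := by rw [← wd_nil']; exact ne_of_pt (by norm_num) k4
  -- the conjugates
  have q0 : Cyc5.cj (wd t3) (wd a0) 0 = wd a0 := cj_zero _ _
  have qs : ∀ (i : ℤ) (w : List ℕ), Cyc5.cj (wd t3) (wd a0) i = wd w →
      Cyc5.cj (wd t3) (wd a0) (1 + i) = wd (cj t3 w) := by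
    intro i w h
    rw [← cj_conj, h, wd_cj, zpow_one]
  have q1 : Cyc5.cj (wd t3) (wd a0) 1 = wd a1 := qs 0 _ q0
  have q2 : Cyc5.cj (wd t3) (wd a0) 2 = wd a2 := qs 1 _ q1
  have q3 : Cyc5.cj (wd t3) (wd a0) 3 = wd a3 := qs 2 _ q2
  have q4 : Cyc5.cj (wd t3) (wd a0) 4 = wd a4 := qs 3 _ q3
  have q5 : ∀ i k : ℤ, Cyc5.cj (wd t3) (wd a0) (i + 5 * k) = Cyc5.cj (wd t3) (wd a0) i := by
    intro i k
    have e1 : (wd t3) ^ (5 * k) = 1 := by
      rw [zpow_mul, show (wd t3) ^ (5 : ℤ) = wd t3 ^ 5 from rfl, ht5, one_zpow]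
    rw [Cyc5.cj, zpow_add, e1, mul_one]
    rfl
  have qm : ∀ i : ℤ, Cyc5.cj (wd t3) (wd a0) i = wd a0 ∨ Cyc5.cj (wd t3) (wd a0) i = wd a1 ∨
      Cyc5.cj (wd t3) (wd a0) i = wd a2 ∨ Cyc5.cj (wd t3) (wd a0) i = wd a3 ∨
      Cyc5.cj (wd t3) (wd a0) i = wd a4 := by
    intro i
    have e1 : Cyc5.cj (wd t3) (wd a0) i = Cyc5.cj (wd t3) (wd a0) (i % 5) := by
      conv_lhs => rw [← Int.emod_add_mul_ediv i 5]
      exact q5 _ _
    rw [e1]
    have h2 : i % 5 = 0 ∨ i % 5 = 1 ∨ i % 5 = 2 ∨ i % 5 = 3 ∨ i % 5 = 4 := by omega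
    rcases h2 with h2 | h2 | h2 | h2 | h2 <;> rw [h2]
    · exact Or.inl q0
    · exact Or.inr (Or.inl q1)
    · exact Or.inr (Or.inr (Or.inl q2))
    · exact Or.inr (Or.inr (Or.inr (Or.inl q3)))
    · exact Or.inr (Or.inr (Or.inr (Or.inr q4)))
  have z1 : wd z3 * wd a1 = wd a1 * wd z3 := by
    have e : wd a1 = wd t3 * wd a0 * (wd t3)⁻¹ := wd_cj _ _
    rw [e]
    exact ((show Commute (wd z3) (wd t3) from hzt).mul_right hza).mul_right
      (show Commute (wd z3) (wd t3) from hzt).inv_right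
  have z2 : wd z3 * wd a2 = wd a2 * wd z3 := by
    have e : wd a2 = wd t3 * wd a1 * (wd t3)⁻¹ := wd_cj _ _
    rw [e]
    exact ((show Commute (wd z3) (wd t3) from hzt).mul_right z1).mul_right
      (show Commute (wd z3) (wd t3) from hzt).inv_right
  have z3' : wd z3 * wd a3 = wd a3 * wd z3 := by
    have e : wd a3 = wd t3 * wd a2 * (wd t3)⁻¹ := wd_cj _ _
    rw [e]
    exact ((show Commute (wd z3) (wd t3) from hzt).mul_right z2).mul_right
      (show Commute (wd z3) (wd t3) from hzt).inv_right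
  have p1 : wd a1 ^ 3 = 1 := by
    have e : wd a1 = wd t3 * wd a0 * (wd t3)⁻¹ := wd_cj _ _
    rw [e, conj_pow, ha3, mul_one, mul_inv_cancel]
  have p2 : wd a2 ^ 3 = 1 := by
    have e : wd a2 = wd t3 * wd a1 * (wd t3)⁻¹ := wd_cj _ _
    rw [e, conj_pow, p1, mul_one, mul_inv_cancel]
  have p3 : wd a3 ^ 3 = 1 := by
    have e : wd a3 = wd t3 * wd a2 * (wd t3)⁻¹ := wd_cj _ _
    rw [e, conj_pow, p2, mul_one, mul_inv_cancel]
  have c02 : wd a0 * wd a2 = wd a2 * wd a0 := commutatorElement_eq_one_iff_mul_comm.1 hyy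
  have c12 : ⁅wd a1, wd a2⁆ = wd z3 := by rw [← wd_cm]; exact eq_of_chk n5
  have c23 : ⁅wd a2, wd a3⁆ = wd z3 := by rw [← wd_cm]; exact eq_of_chk n6
  have c03 : wd a0 * wd a3 = wd a3 * wd a0 := comm_of_chk n7
  have c13 : wd a1 * wd a3 = wd a3 * wd a1 := comm_of_chk n8
  have m01 : wd a0 * wd a1 ≠ wd a1 * wd a0 := by rw [← wd_app, ← wd_app]; exact ne_of_pt (by norm_num) n1
  have m23 : wd a2 * wd a3 ≠ wd a3 * wd a2 := by rw [← wd_app, ← wd_app]; exact ne_of_pt (by norm_num) n2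
  have m3v : wd a3 * (wd a0 * wd a2) ≠ (wd a0 * wd a2) * wd a3 := by
    rw [← wd_app a0 a2, ← wd_app, ← wd_app]; exact ne_of_pt (by norm_num) n3
  have muc : ⁅wd u3, wd a0⁆ * wd a0 ≠ wd a0 * ⁅wd u3, wd a0⁆ := by
    rw [← wd_cm, ← wd_app, ← wd_app]; exact ne_of_pt (by norm_num) n4
  -- the conjugates by `u`
  have u0 : wd u3 * wd a0 * (wd u3)⁻¹ = wd a1 * wd a1 * wd a2 * wd a2 * wd a3 := by
    rw [← wd_cj, eq_of_chk k5]; simp only [wd_app, mul_assoc]
  have u1 : wd u3 * wd a1 * (wd u3)⁻¹ = wd a0 * wd a0 * wd a1 * wd a2 := by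
    rw [← wd_cj, eq_of_chk k6]; simp only [wd_app, mul_assoc]
  have u2 : wd u3 * wd a2 * (wd u3)⁻¹ = wd a0 * wd a0 * wd a1 * wd a1 * wd a3 * wd z3 := by
    rw [← wd_cj, eq_of_chk k7]; simp only [wd_app, mul_assoc]
  have u3' : wd u3 * wd a3 * (wd u3)⁻¹ = wd a1 * wd a2 * wd a2 * wd z3 * wd z3 := by
    rw [← wd_cj, eq_of_chk k8]; simp only [wd_app, mul_assoc]
  have ua4 : wd a4 = wd a0 * wd a0 * wd a1 * wd a1 * wd a2 * wd a2 * wd a3 * wd a3 := by
    rw [eq_of_chk k9]; simp only [wd_app, mul_assoc]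
  -- membership in a subgroup containing `a_0, ..., a_3, z`
  have hgen : ∀ K : Subgroup G1, wd a0 ∈ K → wd a1 ∈ K → wd a2 ∈ K → wd a3 ∈ K → wd z3 ∈ K →
      (wd u3 * wd a0 * (wd u3)⁻¹ ∈ K ∧ wd u3 * wd a1 * (wd u3)⁻¹ ∈ K ∧ wd u3 * wd a2 * (wd u3)⁻¹ ∈ K ∧
        wd u3 * wd a3 * (wd u3)⁻¹ ∈ K ∧ wd u3 * wd z3 * (wd u3)⁻¹ ∈ K) := by
    intro K g0 g1 g2 g3 g4
    refine ⟨?_, ?_, ?_, ?_, ?_⟩
    · rw [u0]; repeat' first | assumption | apply mul_mem
    · rw [u1]; repeat' first | assumption | apply mul_mem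
    · rw [u2]; repeat' first | assumption | apply mul_mem
    · rw [u3']; repeat' first | assumption | apply mul_mem
    · rw [← hzu, mul_inv_cancel_right]; exact g4
  -- orders
  have s0 := base (p := 3) (by norm_num) hz3 hz1
  have s1 := step_comm (b := wd a0) (c := wd a1) (by norm_num) s0
    (by rintro x rfl; exact conj_mem_of_comm rfl hza.symm) ha3 (by rintro x rfl; exact z1) m01
  have s2 := step_comm (b := wd a2) (c := wd a3) (by norm_num) s1
    (by
      rintro x (rfl | rfl)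
      · exact conj_mem_of_comm (by simp) c02.symm
      · exact conj_mem_of_comm (by simp) z2.symm) p2
    (by
      rintro x (rfl | rfl)
      · exact c03
      · exact z3') m23
  have s3 := step_comm (b := wd a1) (c := wd a0) (by norm_num) s2
    (by
      rintro x (rfl | rfl | rfl)
      · exact conj_mem_of_comm' (by simp) (subset_closure (by simp)) c12
      · refine conj_mem_of_comm' (c := (wd z3)⁻¹) (by simp) (inv_mem (subset_closure (by simp))) ?_
        rw [← hzz, commutatorElement_inv]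
      · exact conj_mem_of_comm (by simp) z1.symm) p1
    (by
      rintro x (rfl | rfl | rfl)
      · exact c02.symm
      · rfl
      · exact hza) m01.symm
  have s4 := step_comm (b := wd a3) (c := wd a0 * wd a2) (by norm_num) s3
    (by
      rintro x (rfl | rfl | rfl | rfl)
      · exact conj_mem_of_comm (by simp) c13.symm
      · refine conj_mem_of_comm' (c := (wd z3)⁻¹) (by simp) (inv_mem (subset_closure (by simp))) ?_
        rw [← c23, commutatorElement_inv]
      · exact conj_mem_of_comm (by simp) c03.symm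
      · exact conj_mem_of_comm (by simp) z3'.symm) p3
    (by
      have e10 : wd a1 * (wd a0 * wd a2) = (wd a0 * wd a2) * wd a1 := by
        have f1 : wd a0 * wd a1 = wd z3 * (wd a1 * wd a0) := by rw [← hzz, commutatorElement_def]; group
        have f2 : wd a1 * wd a2 = wd z3 * (wd a2 * wd a1) := by rw [← c12, commutatorElement_def]; group
        have f3 : (wd a0 * wd a2) * wd a1 = wd a0 * ((wd z3)⁻¹ * (wd a1 * wd a2)) := by rw [f2]; group
        have f4 : wd a0 * (wd z3)⁻¹ = (wd z3)⁻¹ * wd a0 := ((show Commute (wd z3) (wd a0) from hza).inv_left).symm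
        calc wd a1 * (wd a0 * wd a2) = (wd z3)⁻¹ * (wd z3 * (wd a1 * wd a0)) * wd a2 := by group
          _ = (wd z3)⁻¹ * (wd a0 * wd a1) * wd a2 := by rw [f1]
          _ = ((wd z3)⁻¹ * wd a0) * (wd a1 * wd a2) := by group
          _ = (wd a0 * (wd z3)⁻¹) * (wd a1 * wd a2) := by rw [f4]
          _ = wd a0 * ((wd z3)⁻¹ * (wd a1 * wd a2)) := by group
          _ = (wd a0 * wd a2) * wd a1 := f3.symm
      rintro x (rfl | rfl | rfl | rfl)
      · exact e10
      · rw [← mul_assoc, ← c02]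
      · rw [mul_assoc, ← c02]
      · rw [← mul_assoc, hza, mul_assoc, z2, mul_assoc]) m3v
  have hcomm4 : ∀ x ∈ closure ({wd a3, wd a1, wd a2, wd a0, wd z3} : Set G1),
      ∀ y ∈ closure ({wd a3, wd a1, wd a2, wd a0, wd z3} : Set G1), ⁅x, y⁆ ∈ zpowers (wd z3) := by
    have hle : ⁅closure ({wd a3, wd a1, wd a2, wd a0, wd z3} : Set G1),
        closure ({wd a3, wd a1, wd a2, wd a0, wd z3} : Set G1)⁆ ≤ zpowers (wd z3) := by
      apply Cfsg.Agent.H48.Crit.commutator_le_of_gen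
      · have hz : ∀ x : G1, wd z3 * x = x * wd z3 → ∀ c ∈ zpowers (wd z3), x * c * x⁻¹ ∈ zpowers (wd z3) := by
          intro x hx c hc
          obtain ⟨n, rfl⟩ := mem_zpowers_iff.1 hc
          have h1 : Commute (wd z3 ^ n) x := Commute.zpow_left hx n
          rw [← h1.eq, mul_inv_cancel_right]
          exact hc
        rintro x (rfl | rfl | rfl | rfl | rfl)
        · exact hz _ z3'
        · exact hz _ z1
        · exact hz _ z2
        · exact hz _ hza
        · exact hz _ rfl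
      · have mz : wd z3 ∈ zpowers (wd z3) := mem_zpowers _
        have mc : ∀ x y : G1, x * y = y * x → ⁅x, y⁆ ∈ zpowers (wd z3) := by
          intro x y h
          rw [commutatorElement_eq_one_iff_mul_comm.2 h]; exact one_mem _
        have mi : ∀ x y : G1, ⁅x, y⁆ = wd z3 → ⁅y, x⁆ ∈ zpowers (wd z3) := by
          intro x y h
          rw [← commutatorElement_inv, h]; exact inv_mem mz
        have md : ∀ x y : G1, ⁅x, y⁆ = wd z3 → ⁅x, y⁆ ∈ zpowers (wd z3) := by
          intro x y h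
          rw [h]; exact mz
        rintro x (rfl | rfl | rfl | rfl | rfl) y (rfl | rfl | rfl | rfl | rfl)
        · exact mc _ _ rfl
        · exact mc _ _ c13.symm
        · exact mi _ _ c23
        · exact mc _ _ c03.symm
        · exact mc _ _ z3'.symm
        · exact mc _ _ c13
        · exact mc _ _ rfl
        · exact md _ _ c12
        · exact mi _ _ hzz
        · exact mc _ _ z1.symm
        · exact md _ _ c23
        · exact mi _ _ c12
        · exact mc _ _ rfl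
        · exact mc _ _ c02.symm
        · exact mc _ _ z2.symm
        · exact mc _ _ c03
        · exact md _ _ hzz
        · exact mc _ _ c02
        · exact mc _ _ rfl
        · exact mc _ _ hza.symm
        · exact mc _ _ z3'
        · exact mc _ _ z1
        · exact mc _ _ z2
        · exact mc _ _ hza
        · exact mc _ _ rfl
    intro x hx y hy
    exact hle (commutator_mem_commutator hx hy)
  have s5 := step (b := wd u3) (by norm_num) s4
    (by
      obtain ⟨w0, w1, w2, w3, w4⟩ := hgen (closure ({wd a3, wd a1, wd a2, wd a0, wd z3} : Set G1))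
        (subset_closure (by simp)) (subset_closure (by simp)) (subset_closure (by simp)) (subset_closure (by simp))
        (subset_closure (by simp))
      rintro x (rfl | rfl | rfl | rfl | rfl)
      · exact w3
      · exact w1
      · exact w2
      · exact w0
      · exact w4) hu3
    (by
      intro hm
      apply muc
      have h1 := hcomm4 _ hm _ (subset_closure (show wd a0 ∈ _ by simp))
      obtain ⟨n, hn⟩ := mem_zpowers_iff.1 h1
      rw [← hn]
      exact (Commute.zpow_left (show Commute (wd z3) (wd a0) from hza) n))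
  -- the index
  have mr : ∀ i, Cyc5.cj (wd t3) (wd a0) i ∈ closure (Set.range (Cyc5.cj (wd t3) (wd a0))) :=
    fun i => subset_closure ⟨i, rfl⟩
  have r0 : wd a0 ∈ closure (Set.range (Cyc5.cj (wd t3) (wd a0))) := q0 ▸ mr 0
  have r1 : wd a1 ∈ closure (Set.range (Cyc5.cj (wd t3) (wd a0))) := q1 ▸ mr 1
  have r2 : wd a2 ∈ closure (Set.range (Cyc5.cj (wd t3) (wd a0))) := q2 ▸ mr 2
  have r3 : wd a3 ∈ closure (Set.range (Cyc5.cj (wd t3) (wd a0))) := q3 ▸ mr 3
  have rz : wd z3 ∈ closure (Set.range (Cyc5.cj (wd t3) (wd a0))) := by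
    rw [← hzz, commutatorElement_def]
    exact mul_mem (mul_mem (mul_mem r0 r1) (inv_mem r0)) (inv_mem r1)
  have hle : closure ({wd u3, wd a3, wd a1, wd a2, wd a0, wd z3} : Set G1) ≤
      closure (insert (wd u3) (Set.range (Cyc5.cj (wd t3) (wd a0)))) := by
    have hmono : closure (Set.range (Cyc5.cj (wd t3) (wd a0))) ≤
        closure (insert (wd u3) (Set.range (Cyc5.cj (wd t3) (wd a0)))) := closure_mono (Set.subset_insert _ _)
    rw [closure_le]
    rintro x (rfl | rfl | rfl | rfl | rfl | rfl)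
    · exact subset_closure (Set.mem_insert _ _)
    · exact hmono r3
    · exact hmono r1
    · exact hmono r2
    · exact hmono r0
    · exact hmono rz
  have hidx : ¬ 3 ∣ (closure (insert (wd u3) (Set.range (Cyc5.cj (wd t3) (wd a0))))).index := by
    refine Cfsg.Agent.H51.Tools.not_dvd_index_of (k := 6) (by norm_num) (s5.2.trans (Subgroup.card_dvd_of_le hle)) ?_
    rw [card_G1]; norm_num
  obtain ⟨w0, w1, w2, w3, w4⟩ := hgen _ r0 r1 r2 r3 rz
  rw [← q2]
  refine ker_cyc5 (by norm_num) (by norm_num) (by norm_num) hjj ha3 hja ht5 htj huj (by rw [q1]; exact hzz) hz1 (n := 0)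
    (by rw [q2, hyy, zpow_zero]) (zpow_zero _) hza hzj hzt ?_ hidx L π h hP
  intro i
  rcases qm i with h | h | h | h | h <;> rw [h]
  · exact w0
  · exact w1
  · exact w2
  · exact w3
  · rw [ua4]
    have hmul : ∀ x y : G1, wd u3 * x * (wd u3)⁻¹ ∈ closure (Set.range (Cyc5.cj (wd t3) (wd a0))) →
        wd u3 * y * (wd u3)⁻¹ ∈ closure (Set.range (Cyc5.cj (wd t3) (wd a0))) →
        wd u3 * (x * y) * (wd u3)⁻¹ ∈ closure (Set.range (Cyc5.cj (wd t3) (wd a0))) := by
      intro x y hx hy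
      have e : wd u3 * (x * y) * (wd u3)⁻¹ = (wd u3 * x * (wd u3)⁻¹) * (wd u3 * y * (wd u3)⁻¹) := by group
      rw [e]; exact mul_mem hx hy
    repeat' first | assumption | apply hmul

end Pair

/-! ### The extension -/

open Cfsg.Agent.McLType.Gens Cfsg.Agent.H235.Ore.McLM Cfsg.Agent.H235.Ore.McL Subgroup
open Cfsg.Agent.H51.Mult Cfsg.Agent.H777.Ore Cfsg.Agent.H6.QO
open scoped commutatorElement

/-- the isomorphism of the two copies -/
noncomputable def f : Cfsg.Agent.McLType.X275.G1 →* ↥K0 := Cfsg.Agent.McLType.X275.ψ.codRestrict K0 fun g => by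
  rw [← Cfsg.Agent.H904.McLCent.range_ψ]
  exact ⟨g, rfl⟩

theorem f_bij : Function.Bijective f := by
  constructor
  · intro a b h
    exact Cfsg.Agent.McLType.X275.ψ_injective (congrArg Subtype.val h)
  · intro k
    obtain ⟨g, hg⟩ := (SetLike.ext_iff.1 Cfsg.Agent.H904.McLCent.range_ψ (k : Equiv.Perm (Fin 275))).2 k.2
    exact ⟨g, Subtype.ext hg⟩

theorem f_wd (w : List ℕ) : f (Cfsg.Agent.H58.McLOdd.wd w) = wk w := by
  apply Subtype.ext
  show Cfsg.Agent.McLType.X275.ψ (Cfsg.Agent.H58.McLOdd.wd w) = wd w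
  refine Equiv.ext fun i => Fin.ext ?_
  rw [Cfsg.Agent.H58.McLOdd.app_spec, ← act_eq]
  induction w with
  | nil => rfl
  | cons c w ih =>
    show Cfsg.Agent.H58.McLOdd.st c (Cfsg.Agent.H58.McLOdd.app w i) = Cfsg.Agent.SporadicA.PermTab.lk (tb c) (act w i)
    rw [ih, act_eq]
    exact Cfsg.Agent.H904.McLCent.e_eq ⟨c % 7, Nat.mod_lt _ (by norm_num)⟩ (wd w i)

/-- the involution -/
def iota : List ℕ := [6, 4, 5, 6, 3, 2, 1, 0, 1, 2, 3, 6, 5, 4, 6]
/-- the conjugating word -/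
def v9 : List ℕ := [3, 5, 0, 6, 1, 3, 6, 5, 4, 3, 6, 2, 0, 4, 5, 4]

theorem iota_sq : chkB (iota ++ iota) [] = true := by decide +kernel
theorem iota_comm : chkB (Cfsg.Agent.H58.McLOdd.a0 ++ iota) (iota ++ Cfsg.Agent.H58.McLOdd.a0) = true := by decide +kernel
theorem v9_conj : chkB (v9.reverse ++ (Cfsg.Agent.H58.McLOdd.a2 ++ (iota ++ v9))) x9A = true := by decide +kernel

theorem isP {L : Type} [Group L] [Finite L] {π : L →* ↥K0} (h : PCE π) : IsPGroup 3 π.ker := by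
  obtain ⟨e⟩ := isoK0
  have h1 := (Cfsg.Agent.H68.Bounds.ker_of_hasCyclic Cfsg.Agent.S2047.result (h.congr e)).2
  rw [ker_congr] at h1
  rcases (Nat.dvd_prime Nat.prime_three).1 h1 with h2 | h2
  · exact IsPGroup.of_card (n := 0) (by rw [h2, pow_zero])
  · exact IsPGroup.of_card (n := 1) (by rw [h2, pow_one])

/-- **An element of order nine is conjugate to its product with a generator of the kernel.** -/
theorem fus {L : Type} [Group L] [Finite L] {π : L →* ↥K0} (h : PCE π) :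
    ∃ z x : L, π z = 1 ∧ (∀ ζ : L, π ζ = 1 → ζ ∈ zpowers z) ∧ π x = wk x9A ∧ IsConj x (x * z) := by
  have hP := isP h
  let e : Cfsg.Agent.McLType.X275.G1 ≃* ↥K0 := MulEquiv.ofBijective f f_bij
  have h' := h.congr e.symm
  have hk : (e.symm.toMonoidHom.comp π).ker = π.ker := ker_congr _ _
  obtain ⟨A, B, hA, hB, hz⟩ := pair L (e.symm.toMonoidHom.comp π) h' (by rw [hk]; exact hP)
  have hA' : π A = wk Cfsg.Agent.H58.McLOdd.a0 := by
    rw [← f_wd, ← hA]
    exact (e.apply_symm_apply (π A)).symm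
  have hB' : π B = wk Cfsg.Agent.H58.McLOdd.a2 := by
    rw [← f_wd, ← hB]
    exact (e.apply_symm_apply (π B)).symm
  obtain ⟨I, hI⟩ := h.surj (wk iota)
  obtain ⟨V, hV⟩ := h.surj (wk v9)
  -- `A` commutes with `I`
  have hi2 : wk iota * wk iota = 1 := sq_of iota_sq
  have hAI : A * I = I * A := by
    have h1 : ⁅A, I⁆ = 1 := Cfsg.Agent.CpQuot.Pairs.comm_eq_one (n := 2) h.cen hP (by
      rw [hA', hI, ← wk_append, ← wk_append]
      exact wk_eq iota_comm) (by norm_num) (by rw [hI, pow_two, hi2])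
    exact commutatorElement_eq_one_iff_mul_comm.1 h1
  have c02 : wk Cfsg.Agent.H58.McLOdd.a0 * wk Cfsg.Agent.H58.McLOdd.a2 =
      wk Cfsg.Agent.H58.McLOdd.a2 * wk Cfsg.Agent.H58.McLOdd.a0 := by
    rw [← wk_append, ← wk_append]
    exact wk_eq (by decide +kernel)
  have hz1 : π ⁅A, B⁆ = 1 := by
    rw [map_commutatorElement, hA', hB']
    exact commutatorElement_eq_one_iff_mul_comm.2 c02
  have hzc := fun y => mem_center_iff.1 (h.cen hz1) y
  refine ⟨⁅A, B⁆, V⁻¹ * (B * I) * V, hz1, fun ζ hζ => hz ζ ?_, ?_, isConj_iff.2 ⟨V⁻¹ * A * V, ?_⟩⟩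
  · show e.symm (π ζ) = 1
    rw [hζ, map_one]
  · rw [map_mul, map_mul, map_mul, map_inv, hB', hI, hV, ← wk_reverse, ← wk_append, ← wk_append, ← wk_append]
    refine wk_eq ?_
    have h1 := v9_conj
    rw [List.append_assoc, List.append_assoc]
    exact h1
  · calc V⁻¹ * A * V * (V⁻¹ * (B * I) * V) * (V⁻¹ * A * V)⁻¹
        = V⁻¹ * (A * B * (I * A⁻¹)) * V := by group
      _ = V⁻¹ * (A * B * (A⁻¹ * I)) * V := by
          rw [(show Commute A I from hAI).inv_left.eq]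
      _ = V⁻¹ * (⁅A, B⁆ * (B * I)) * V := by rw [commutatorElement_def]; group
      _ = V⁻¹ * ((B * I) * ⁅A, B⁆) * V := by rw [← hzc (B * I)]
      _ = V⁻¹ * (B * I) * (⁅A, B⁆ * V) := by group
      _ = V⁻¹ * (B * I) * (V * ⁅A, B⁆) := by rw [← hzc V]
      _ = V⁻¹ * (B * I) * V * ⁅A, B⁆ := by group

/-- all lifts of `k` to perfect central extensions are commutators -/
def P (k : ↥K0) : Prop :=
  ∀ (L : Type) [Group L] [Finite L] (π : L →* ↥K0), PCE π → ∀ g : L, π g = k → IsC g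

theorem P_of {X U Y : List ℕ} (h : chkB X (U ++ (x9A ++ (U.reverse ++ (Y ++ (U ++ (x9A.reverse ++
    (U.reverse ++ Y.reverse))))))) = true) : P (wk X) := by
  intro L _ _ π hπ g hg
  obtain ⟨z, x, hz1, hz, hx, hc⟩ := fus hπ
  obtain ⟨u, hu⟩ := hπ.surj (wk U)
  have h1 := wk_eq h
  simp only [wk_append, wk_reverse] at h1
  refine isC_of_pair_zpowers hπ.surj hπ.cen hz hz1 (x := u * x * u⁻¹) (k := wk Y) ?_ ?_
  · rw [hg, h1, map_mul, map_mul, map_inv, hu, hx]
    group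
  · obtain ⟨c, hc⟩ := isConj_iff.1 hc
    refine isConj_iff.2 ⟨u * c * u⁻¹, ?_⟩
    have hzu := mem_center_iff.1 (hπ.cen hz1) u⁻¹
    calc u * c * u⁻¹ * (u * x * u⁻¹) * (u * c * u⁻¹)⁻¹ = u * (c * x * c⁻¹) * u⁻¹ := by group
      _ = u * x * (z * u⁻¹) := by rw [hc]; group
      _ = u * x * (u⁻¹ * z) := by rw [hzu]
      _ = u * x * u⁻¹ * z := by group

theorem P_one : P 1 := by
  intro L _ _ π hπ g hg
  obtain ⟨z, x, hz1, hz, hx, hc⟩ := fus hπ
  refine isC_of_pair_zpowers hπ.surj hπ.cen hz hz1 (x := x) (k := 1) ?_ hc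
  rw [hg]
  group

theorem P_inv {k : ↥K0} (h : P k) : P k⁻¹ := by
  intro L _ _ π hπ g hg
  have h1 := (h L π hπ g⁻¹ (by rw [map_inv, hg, inv_inv])).inv
  rwa [inv_inv] at h1

theorem q2A : P (wk x2A) := P_of (U := [6, 3]) (Y := [6, 3, 1, 0, 6]) (by decide +kernel)
theorem q3A : P (wk x3A) := P_of (U := [6, 0, 3, 0, 6]) (Y := [6, 0, 3, 0, 6, 1, 3, 6, 3, 5, 6, 5, 0, 3, 0, 6]) (by decide +kernel)
theorem q3B : P (wk x3B) := P_of (U := [6, 0]) (Y := [6, 0, 1, 0, 1, 6]) (by decide +kernel)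
theorem q4A : P (wk x4A) := P_of (U := [2, 5, 6]) (Y := [2, 0, 2]) (by decide +kernel)
theorem q5A : P (wk x5A) := P_of (U := [4, 5, 6, 0, 3]) (Y := [4, 5, 6, 0, 6, 5, 4, 6, 2, 6, 5, 4]) (by decide +kernel)
theorem q5B : P (wk x5B) := P_of (U := [0, 1, 6]) (Y := [0, 1, 6, 3, 0, 6, 1, 0]) (by decide +kernel)
theorem q6A : P (wk x6A) := P_of (U := [6, 5, 6, 1, 2]) (Y := [6, 5, 6, 1, 2, 6, 3, 5, 6, 2, 1, 6, 2, 5, 6, 1, 2, 1, 6, 5, 6]) (by decide +kernel)
theorem q6B : P (wk x6B) := P_of (U := [5, 2, 6]) (Y := [5, 2, 5, 1, 4, 3, 4, 3, 5, 4, 3, 6, 2, 5]) (by decide +kernel)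
theorem q7A : P (wk x7A) := P_of (U := [3]) (Y := [3, 2, 3, 4, 2, 3, 5, 4, 3, 6, 3]) (by decide +kernel)
theorem q8A : P (wk x8A) := P_of (U := [5, 2, 6]) (Y := [5, 2, 5, 4, 5, 3, 4, 1, 4, 5, 3, 6, 2, 5]) (by decide +kernel)
theorem q9A : P (wk x9A) := P_of (U := [3, 2]) (Y := [3, 0, 3, 5, 0, 3]) (by decide +kernel)
theorem q10A : P (wk x10A) := P_of (U := [4, 3, 0, 6, 0]) (Y := [4, 3, 0, 6, 0, 4, 1, 5, 3, 4]) (by decide +kernel)
theorem q11A : P (wk x11A) := P_of (U := [1, 6, 0, 3]) (Y := [1, 6, 0, 3, 4, 3, 1, 4, 5, 0, 3, 4, 3, 0, 6, 1]) (by decide +kernel)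
theorem q12A : P (wk x12A) := P_of (U := [3, 0, 1, 6]) (Y := [3, 0, 1, 6, 0, 6, 5, 0, 1, 0, 3]) (by decide +kernel)
theorem q14A : P (wk x14A) := P_of (U := [4, 0, 3, 1, 0, 6]) (Y := [4, 0, 3, 1, 0, 6, 4, 5, 1, 2, 5, 1, 3, 0, 4]) (by decide +kernel)
theorem q15A : P (wk x15A) := P_of (U := [0, 1, 2, 3, 4]) (Y := [0, 1, 2, 3, 5, 4, 0, 6, 4, 3, 2, 1, 0]) (by decide +kernel)
theorem q30A : P (wk x30A) := P_of (U := [0, 2, 4]) (Y := [0, 2, 1, 2, 5, 4, 2, 6, 5, 4, 2, 0]) (by decide +kernel)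

theorem all_P (k : ↥K0) : P k := by
  refine all_model P (fun φ hφ g hg => ?_) P_one (fun h => P_inv h) q2A q3A q3B q4A q5A q5B q6A q6B q7A q8A q9A q10A q11A q12A q14A q15A q30A k
  intro L _ _ π hπ y hy
  let e : ↥K0 ≃* ↥K0 := MulEquiv.ofBijective φ ⟨hφ, Finite.injective_iff_surjective.1 hφ⟩
  refine hg L (e.symm.toMonoidHom.comp π) (hπ.congr e.symm) y ?_
  show e.symm (π y) = g
  rw [hy]
  exact e.symm_apply_apply g

theorem rowA_K0 : RowA ↥K0 := fun L _ _ π hπ g => all_P (π g) L π hπ g rfl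

/-- **Ore's theorem for `3.McL`** -/
theorem rowA_McL : RowA ↥Cfsg.Spor.McL := by
  obtain ⟨e⟩ := isoK0
  exact rowA_K0.congr e

theorem rowA {K : Type*} [Group K] (h : Cfsg.Spor.IsoMcL K) : RowA K := by
  obtain ⟨e⟩ := h
  exact rowA_McL.congr e.symm

end Cfsg.Agent.H235.QS.McLCov
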